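import Cfsg.Agent.H597.HT6.Lin
import Cfsg.Agent.H597.HT6.Grp
import Cfsg.Agent.H597.HT6.UGrp
import Cfsg.Agent.H597.HT12.Twelve
import Cfsg.Agent.H578.HT.Cov
import Cfsg.Agent.H337.HT.Cand
import Cfsg.Agent.H912.CrossList

/-!
# S3540, quasisimple rows: degree 6, `S = U3(3)`
-/

set_option autoImplicit false
set_option linter.unusedSectionVars false

universe u w

namespace Cfsg.Agent.H597.HT6

open Cfsg.Agent.H828.HT Cfsg.Agent.H337.HT Cfsg

variable {p : ℕ} [Fact p.Prime] {K : Type w} [Field K] {V : Type u} [AddCommGroup V] [Module (ZMod p) V] [Finite V]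
    [Module K V] {G L : Subgroup (V ≃ₗ[ZMod p] V)} {h : ℕ}

/-- an element of `L` as a `K`-linear automorphism -/
def ke (H : QS p K V G L h) (x : L) : V ≃ₗ[K] V :=
  { (x : V ≃ₗ[ZMod p] V) with
    map_smul' := fun c v => H.lin _ x.2 c v }

@[simp] theorem ke_apply (H : QS p K V G L h) (x : L) (v : V) : ke H x v = (x : V ≃ₗ[ZMod p] V) v := rfl

theorem mul_val (x y : L) (v : V) : ((x * y : L) : V ≃ₗ[ZMod p] V) v = (x : V ≃ₗ[ZMod p] V) ((y : V ≃ₗ[ZMod p] V) v) :=
  rfl

theorem val_eq {x y : L} (hxy : x = y) (v : V) : (x : V ≃ₗ[ZMod p] V) v = (y : V ≃ₗ[ZMod p] V) v := by rw [hxy]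

/-- elements of order 3 -/
theorem card_fix (H : QS p K V G L h) (hn : Module.finrank K V = 6) (hq : Nat.card K % 3 = 2)
    (hP : ∀ P : Sylow 3 L, Nat.card P = 27 ∧ ∃ a ∈ P, ∃ b ∈ P, a * b ≠ b * a) {x : L} (hx : x ^ 3 = 1) (hx1 : x ≠ 1) :
    Nat.card {v : V // (x : V ≃ₗ[ZMod p] V) v = v} ≤ Nat.card K ^ 2 := by
  have h3 : Fact (Nat.Prime 3) := ⟨by norm_num⟩
  have hK := H.finiteK
  -- a Sylow subgroup containing `x`
  have hpx : IsPGroup 3 (Subgroup.zpowers x) := by
    refine IsPGroup.of_card (n := 1) ?_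
    rw [Nat.card_zpowers, orderOf_eq_prime hx hx1, pow_one]
  obtain ⟨P, hxP⟩ := hpx.exists_le_sylow
  have hxP' : x ∈ (P : Subgroup L) := hxP (Subgroup.mem_zpowers x)
  obtain ⟨hc, a, ha, b, hb, hab⟩ := hP P
  obtain ⟨w, z, y, hw3, hz3, hz1, hwz, hyz, hy, hor⟩ := exists_triple (P := (P : Subgroup L)) hc
    ⟨⟨a, ha⟩, ⟨b, hb⟩, fun h => hab (congrArg Subtype.val h)⟩ (x := ⟨x, hxP'⟩) (Subtype.ext hx)
    (fun h => hx1 (congrArg Subtype.val h))
  have v3 : ∀ g : (P : Subgroup L), g ^ 3 = 1 → ∀ v, ke H g (ke H g (ke H g v)) = v := by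
    intro g hg v
    have h1 : ((g : L)) ^ 3 = 1 := congrArg Subtype.val hg
    have h2 := val_eq h1 v
    rw [pow_succ, pow_two] at h2
    exact h2
  have vc : ∀ g g' : (P : Subgroup L), g * g' = g' * g → ∀ v, ke H g (ke H g' v) = ke H g' (ke H g v) := by
    intro g g' hg v
    have h1 : (g : L) * g' = g' * g := congrArg Subtype.val hg
    exact val_eq h1 v
  obtain ⟨m1, m2⟩ := main (w := ke H w) (z := ke H z) (y := ke H y) hn hq (v3 w hw3) (v3 z hz3) (by
    intro h0
    apply hz1
    refine Subtype.ext (Subtype.ext (LinearEquiv.ext fun v => ?_))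
    exact LinearEquiv.congr_fun h0 v) (vc w z hwz) (vc y z hyz) (by
    intro v
    have h1 : (y : L) * w = w * z * y := congrArg Subtype.val hy
    exact val_eq h1 v)
  rcases hor with h1 | h1
  · have h2 : x = (w : L) := congrArg Subtype.val h1
    rw [h2]
    exact m2.le
  · have h2 : x = (z : L) := congrArg Subtype.val h1
    rw [h2]
    have h4 : Nat.card {v : V // ((z : L) : V ≃ₗ[ZMod p] V) v = v} ≤ 1 := by
      have : Subsingleton {v : V // ((z : L) : V ≃ₗ[ZMod p] V) v = v} :=
        ⟨fun a b => Subtype.ext ((m1 a.1 a.2).trans (m1 b.1 b.2).symm)⟩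
      exact Finite.card_le_one_iff_subsingleton.2 this
    exact h4.trans (Nat.one_le_pow _ _ (by have := H.two_le_card; omega))

theorem mod_three {q : ℕ} (hq : 2 ≤ q) (hco : q.Coprime 6048) (hc : Cand 1 6048 12096 6 q) : q % 3 = 2 ∧ 5 ≤ q := by
  have h24 : q < 24 := by
    by_contra hge
    exact loopQ_spec (n := 6) (by norm_num) (by norm_num) 80 24 (by norm_num) (by decide) q (by omega) hco hc
  have hg := hc.gcd_le hq (by norm_num)
  interval_cases q <;> first
    | (exfalso; revert hco; decide)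
    | (exfalso; revert hg; decide)
    | (constructor <;> omega)

/-- **degree 6**, `S = U3(3)` -/
theorem kill_six_U33 (H : QS p K V G L h) (hn : Module.finrank K V = 6)
    (hS : H912.Bd.IsU 3 3 (L ⧸ Subgroup.center L)) : False := by
  have h3 : Fact (Nat.Prime 3) := ⟨by norm_num⟩
  have hK := H.finiteK
  have hK2 := H.two_le_card
  have hco := H.coprime
  obtain ⟨F, _, _, hF, ⟨e⟩⟩ := hS
  have hcS : Nat.card (L ⧸ Subgroup.center L) = 6048 := by rw [Nat.card_congr e.toEquiv, card_psu33 hF]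
  have hcA : Nat.card (MulAut (L ⧸ Subgroup.center L)) = 12096 := by
    rw [Nat.card_congr (MulAut.congr e).toEquiv, card_aut33 hF]
  have hcand := H.cand (one_dvd h)
  rw [hcS, hcA, hn] at hcand
  rw [hcS] at hco
  obtain ⟨hq3, hq5⟩ := mod_three hK2 hco hcand
  -- `3 ∤ |Z(L)|`
  have hZ : ¬ 3 ∣ Nat.card (Subgroup.center L) := by
    intro hd
    obtain ⟨z, hz⟩ := exists_prime_orderOf_dvd_card' 3 hd
    obtain ⟨c, hc⟩ := H578.HT.scal_of_mem_center H z.2
    have hz3 : (z : L) ^ 3 = 1 := by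
      have := pow_orderOf_eq_one z
      rw [hz] at this
      exact congrArg Subtype.val this
    obtain ⟨v, hv⟩ := H.exists_ne
    have hc3 : c ^ 3 = 1 := by
      have h1 : ((z : L) : V ≃ₗ[ZMod p] V) (((z : L) : V ≃ₗ[ZMod p] V) (((z : L) : V ≃ₗ[ZMod p] V) v)) = v := by
        have h2 := val_eq hz3 v
        rw [pow_succ, pow_two] at h2
        exact h2
      rw [hc, hc, hc, smul_smul, smul_smul] at h1
      have h2 : (c ^ 3 - 1) • v = 0 := by
        rw [sub_smul, one_smul, sub_eq_zero]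
        rw [show c ^ 3 = c * c * c by ring]
        rw [show c * c * c = c * (c * c) by ring] at *
        exact h1
      rcases smul_eq_zero.1 h2 with h | h
      · exact sub_eq_zero.1 h
      · exact absurd h hv
    have hc1 : c ≠ 1 := by
      rintro rfl
      have h1 : z = 1 := by
        refine Subtype.ext (Subtype.ext (LinearEquiv.ext fun v => ?_))
        rw [hc, one_smul]; rfl
      rw [h1, orderOf_one] at hz
      omega
    have hc0 : c ≠ 0 := by
      rintro rfl
      norm_num at hc3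
    have h4 : orderOf (Units.mk0 c hc0) = 3 := by
      refine orderOf_eq_prime (Units.ext ?_) (fun h => hc1 (congrArg Units.val h))
      rw [Units.val_pow_eq_pow_val, Units.val_mk0, hc3, Units.val_one]
    have h5 : 3 ∣ Nat.card K - 1 := by
      rw [← Nat.card_units, ← h4]
      exact orderOf_dvd_natCard _
    omega
  -- Sylow 3-subgroups of `L`
  have hL : Nat.card L = 6048 * Nat.card (Subgroup.center L) := by
    rw [← hcS]
    exact Subgroup.card_eq_card_quotient_mul_card_subgroup _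
  have hP : ∀ P : Sylow 3 L, Nat.card P = 27 ∧ ∃ a ∈ P, ∃ b ∈ P, a * b ≠ b * a := by
    intro P
    refine ⟨?_, ?_⟩
    · have h1 := P.card_eq_multiplicity
      have h2 : (Nat.factorization (6048 * Nat.card (Subgroup.center L))) 3 = 3 := by
        rw [show (6048 : ℕ) * Nat.card (Subgroup.center L) = 3 ^ 3 * (224 * Nat.card (Subgroup.center L)) by ring,
          Nat.factorization_mul (by norm_num) (by
            have : 0 < Nat.card (Subgroup.center L) := Nat.card_pos
            positivity),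
          Nat.Prime.factorization_pow (by norm_num)]
        simp only [Finsupp.coe_add, Pi.add_apply, Finsupp.single_eq_same]
        rw [Nat.factorization_eq_zero_of_not_dvd (by
          intro hd
          rcases (Nat.Prime.dvd_mul (by norm_num : Nat.Prime 3)).1 hd with h | h
          · norm_num at h
          · exact hZ h)]
      rw [hL, h2] at h1
      exact h1
    · -- the image in `PSU`
      let f : L →* PSU 3 F 3 := e.toMonoidHom.comp (QuotientGroup.mk' (Subgroup.center L))
      have hf : Function.Surjective f := e.surjective.comp (QuotientGroup.mk'_surjective _)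
      obtain ⟨a, ha, b, hb, hab⟩ := sylow_nonab hF (P.mapSurjective hf)
      have ha' : a ∈ (P : Subgroup L).map f := ha
      have hb' : b ∈ (P : Subgroup L).map f := hb
      obtain ⟨a₁, ha₁, rfl⟩ := ha'
      obtain ⟨b₁, hb₁, rfl⟩ := hb'
      exact ⟨a₁, ha₁, b₁, hb₁, fun h => hab (by rw [← map_mul, h, map_mul])⟩
  -- `3 ∣ h`
  have h3h : 3 ∣ h := by
    obtain ⟨P⟩ : Nonempty (Sylow 3 L) := inferInstance
    obtain ⟨hc27, a, ha, b, hb, hab⟩ := hP P
    have hnc : ¬ IsCyclic (P : Subgroup L) := by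
      intro hcyc
      obtain ⟨g, hg⟩ := hcyc.exists_generator
      obtain ⟨m, hm⟩ := hg ⟨a, ha⟩
      obtain ⟨n, hn⟩ := hg ⟨b, hb⟩
      have h1 : (⟨a, ha⟩ : (P : Subgroup L)) * ⟨b, hb⟩ = ⟨b, hb⟩ * ⟨a, ha⟩ := by
        rw [← hm, ← hn]
        exact (Commute.refl g).zpow_zpow m n
      exact hab (congrArg Subtype.val h1)
    obtain ⟨x, y, hxy, hx, hy, hx1, hyx⟩ := HT12.exists_pair (by norm_num) P.isPGroup' hnc
    obtain ⟨v, hv⟩ := H.exists_ne
    let f : (P : Subgroup L) →* G := (Subgroup.inclusion H.le).comp (P : Subgroup L).subtype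
    have hf : Function.Injective f := (Subgroup.inclusion_injective H.le).comp Subtype.val_injective
    refine HT12.dvd_of_pair H.cop H.half hv (by norm_num) (x := f x) (y := f y) ?_ ?_ ?_ ?_ ?_
    · rw [← map_mul, hxy, map_mul]
    · rw [← map_pow, hx, map_one]
    · rw [← map_pow, hy, map_one]
    · intro h3; exact hx1 (hf (h3.trans (map_one f).symm))
    · rintro ⟨n, hn⟩
      refine hyx ⟨n, hf ?_⟩
      change f (x ^ n) = f y
      rw [map_zpow]
      exact hn
  -- coverage
  have hcov := H578.HT.cov_sum H (r := 3) (by norm_num) h3h (by rw [hcS, hcA]; norm_num)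
    (fun _ => Nat.card K ^ 2 - 1) (by
      intro x hx1 hx3
      -- `x = x' ζ`, `x' ^ 3 = 1`
      set m := Nat.card (Subgroup.center L) with hm
      set x' : L := x ^ (m ^ 2) with hx'
      have hm3 : m ^ 2 % 3 = 1 := by
        have : m % 3 = 1 ∨ m % 3 = 2 := by omega
        rw [Nat.pow_mod]
        rcases this with h | h <;> rw [h]
      have hx'3 : x' ^ 3 = 1 := by
        have h1 : (⟨x ^ 3, hx3⟩ : Subgroup.center L) ^ m = 1 := pow_card_eq_one'
        have h2 : (x ^ 3) ^ m = 1 := congrArg Subtype.val h1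
        rw [hx', ← pow_mul, mul_comm, pow_mul, pow_two, pow_mul, h2, one_pow]
      have hx'1 : x' ≠ 1 := by
        intro h0
        apply hx1
        have h1 : x = x ^ (m ^ 2) * (x ^ 3)⁻¹ ^ (m ^ 2 / 3) := by
          have h2 : x ^ (m ^ 2) = x * (x ^ 3) ^ (m ^ 2 / 3) := by
            conv_lhs => rw [← Nat.mod_add_div (m ^ 2) 3, hm3]
            rw [pow_add, pow_one, pow_mul]
          have h4 : (x ^ 3) ^ (m ^ 2 / 3) * (x ^ 3)⁻¹ ^ (m ^ 2 / 3) = 1 := by
            rw [inv_pow, mul_inv_cancel]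
          rw [h2, mul_assoc, h4, mul_one]
        rw [h1, ← hx', h0, one_mul]
        exact pow_mem (inv_mem hx3) _
      have hfix := card_fix H hn hq3 hP hx'3 hx'1
      -- eigenvectors of `x` are fixed by `x'`
      have hsub : ∀ v : V, (v ≠ 0 ∧ ∃ c : K, (x : V ≃ₗ[ZMod p] V) v = c • v) →
          (v ≠ 0 ∧ (x' : V ≃ₗ[ZMod p] V) v = v) := by
        rintro v ⟨hv, c, hc⟩
        refine ⟨hv, ?_⟩
        have hpw : ∀ k : ℕ, ((x ^ k : L) : V ≃ₗ[ZMod p] V) v = c ^ k • v := by
          intro k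
          induction k with
          | zero => rw [pow_zero, pow_zero, one_smul]; rfl
          | succ k ih => rw [pow_succ, mul_val, hc, H.lin _ (x ^ k).2, ih, smul_smul, pow_succ', mul_comm]
        have hx'v : (x' : V ≃ₗ[ZMod p] V) v = c ^ (m ^ 2) • v := hpw _
        set d := c ^ (m ^ 2) with hd
        have hd3 : d ^ 3 = 1 := by
          have h1 : ((x' ^ 3 : L) : V ≃ₗ[ZMod p] V) v = v := by rw [hx'3]; rfl
          have h2 : ((x' ^ 3 : L) : V ≃ₗ[ZMod p] V) v = d ^ 3 • v := by
            rw [hx', ← pow_mul, hpw, pow_mul]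
          rw [h2] at h1
          have h3 : (d ^ 3 - 1) • v = 0 := by rw [sub_smul, one_smul, h1, sub_self]
          rcases smul_eq_zero.1 h3 with h | h
          · exact sub_eq_zero.1 h
          · exact absurd h hv
        have hd1 : d = 1 := by
          by_contra hne
          have hd0 : d ≠ 0 := by
            intro h0
            rw [h0] at hd3
            norm_num at hd3
          have h4 : orderOf (Units.mk0 d hd0) = 3 := by
            refine orderOf_eq_prime (Units.ext ?_) (fun h => hne (congrArg Units.val h))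
            rw [Units.val_pow_eq_pow_val, Units.val_mk0, hd3, Units.val_one]
          have h5 : 3 ∣ Nat.card K - 1 := by
            rw [← Nat.card_units, ← h4]
            exact orderOf_dvd_natCard _
          omega
        rw [hx'v, hd1, one_smul]
      have h6 : Nat.card {v : V // v ≠ 0 ∧ ∃ c : K, (x : V ≃ₗ[ZMod p] V) v = c • v} ≤
          Nat.card {v : V // v ≠ 0 ∧ (x' : V ≃ₗ[ZMod p] V) v = v} :=
        Nat.card_le_card_of_injective (fun v => ⟨v.1, hsub v.1 v.2⟩)
          (fun a b hab => Subtype.ext (Subtype.mk.inj hab))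
      refine h6.trans ?_
      rw [H578.HT.natCard_ne_zero_and (fun v : V => (x' : V ≃ₗ[ZMod p] V) v = v) (map_zero _)]
      exact Nat.sub_le_sub_right hfix 1)
  rw [Finset.sum_const, smul_eq_mul, Finset.card_univ, ← Nat.card_eq_fintype_card, H.card_V, hn] at hcov
  have hN : Nat.card {R : Subgroup (L ⧸ Subgroup.center L) // Nat.card R = 3} ≤ 364 := by
    refine le_trans (le_of_eq ?_) (card_sub_psu hF)
    refine Nat.card_congr (Equiv.subtypeEquiv e.mapSubgroup.toEquiv ?_)
    intro R
    have : Nat.card (R.map e.toMonoidHom) = Nat.card R :=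
      Nat.card_congr (R.equivMapOfInjective _ e.injective).symm.toEquiv
    change Nat.card R = 3 ↔ Nat.card (R.map e.toMonoidHom) = 3
    rw [this]
  set q := Nat.card K with hq
  have h7 : q ^ 6 - 1 ≤ 364 * (q ^ 2 - 1) := hcov.trans (Nat.mul_le_mul_right _ hN)
  -- `q ^ 6 - 1 = (q ^ 4 + q ^ 2 + 1) (q ^ 2 - 1)`
  obtain ⟨t, ht⟩ : ∃ t, q ^ 2 = t + 1 := ⟨q ^ 2 - 1, by
    have : 1 ≤ q ^ 2 := Nat.one_le_pow _ _ (by omega)
    omega⟩
  have h8 : q ^ 6 = (t + 1) ^ 3 := by rw [← ht]; ring
  have ht24 : 24 ≤ t := by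
    have : 5 ^ 2 ≤ q ^ 2 := Nat.pow_le_pow_left hq5 2
    omega
  rw [h8, ht] at h7
  have h9 : (t + 1) ^ 3 - 1 = t * (t ^ 2 + 3 * t + 3) := by
    have : (t + 1) ^ 3 = t * (t ^ 2 + 3 * t + 3) + 1 := by ring
    omega
  rw [h9, Nat.add_sub_cancel] at h7
  nlinarith

end Cfsg.Agent.H597.HT6
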